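import Cfsg.Agent.Lib.Coset.Cover

/-! # Generated coset enumeration data: SD -/

set_option autoImplicit false

namespace Cfsg.Agent.Lib.SporPres.Rudvalis.SD

open Cfsg.Agent.Lib.Coset

set_option maxRecDepth 8000

/-- The facts. -/
def factStore : Store :=
  .leaf 0x10000800009000009000070000080000610000700005100006000040000050000300000400002100003000011000020000000000100000

/-- The defining facts. -/
def defStore : Store :=
  .leaf 0x8000070000600005000040000300002000010000000000

/-- The certificate. -/
def cert : Cert where
  gens := 2
  nfacts := 10
  rels := [[0,1,0,1,0,1,0,1,0,1]]
  subs := []
  facts := factStore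
  defs := defStore

/-- The nodes of the cosets. -/
def ord : Store :=
  .leaf 0x9000080000700006000050000400003000020000100000

/-- A column. -/
def col0 : Store :=
  .leaf 0x7000060000900008000030000200005000040000000001

/-- A column. -/
def col1 : Store :=
  .leaf 0x8000090000500004000070000600001000000000300002

/-- The table. -/
def tab : Tab where
  size := 10
  gens := 2
  cols := [col0, col1]

end Cfsg.Agent.Lib.SporPres.Rudvalis.SD
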